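import Cfsg.Agent.CF.Elementary
import Cfsg.Agent.CF.SectionTools
import Cfsg.Prelude.Def_LocalEven

/-!
An element that is quadratic on the chief factors of a normal subgroup `N` below `O_p`, in the natural
or central way, is quadratic on the chief factors of the whole group below `O_p`.
-/

set_option autoImplicit false

open scoped commutatorElement

namespace Cfsg.Agent.CF.FocalOdd

open Cfsg.Agent.Fusion

theorem sq_eq_zero_of_isNilpotent {F : Type*} [Field F] {A : Matrix (Fin 2) (Fin 2) F}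
    (h : IsNilpotent A) : A * A = 0 := by
  have ht : A.trace = 0 := (Matrix.isNilpotent_trace_of_isNilpotent h).eq_zero
  obtain ⟨k, hk⟩ := h
  have hd : A.det = 0 := by
    have h1 : A.det ^ k = 0 := by
      rw [← Matrix.det_pow, hk, Matrix.det_zero]
    rcases Nat.eq_zero_or_pos k with rfl | hk0
    · simp at h1
    · exact (pow_eq_zero_iff hk0.ne').1 h1
  rw [Matrix.trace_fin_two] at ht
  rw [Matrix.det_fin_two] at hd
  have h11 : A 1 1 = -A 0 0 := by linear_combination ht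
  rw [h11] at hd
  ext i j
  fin_cases i <;> fin_cases j <;> simp [Matrix.mul_apply, Fin.sum_univ_two, h11]
  · linear_combination -hd
  · ring
  · ring
  · linear_combination -hd

theorem pow_sub_one_mul {F : Type*} [Field F] {A : Matrix (Fin 2) (Fin 2) F}
    (h : (A - 1) * (A - 1) = 0) (m n : ℕ) : (A ^ m - 1) * (A ^ n - 1) = 0 := by
  rw [← mul_geom_sum A m, ← geom_sum_mul A n]
  have hc : Commute (A - 1) (∑ i ∈ Finset.range m, A ^ i) :=
    Commute.sum_right _ _ _ fun i _ => ((Commute.refl A).pow_right i).sub_left (Commute.one_left _)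
  calc (A - 1) * (∑ i ∈ Finset.range m, A ^ i) * ((∑ i ∈ Finset.range n, A ^ i) * (A - 1))
      = (∑ i ∈ Finset.range m, A ^ i) * ((A - 1) * (∑ i ∈ Finset.range n, A ^ i)) * (A - 1) := by
        rw [hc.eq]; noncomm_ring
    _ = (∑ i ∈ Finset.range m, A ^ i) * ((∑ i ∈ Finset.range n, A ^ i) * (A - 1)) * (A - 1) := by
        rw [(Commute.sum_right (Finset.range n) (fun i => A ^ i) (A - 1)
          fun i _ => ((Commute.refl A).pow_right i).sub_left (Commute.one_left _)).eq]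
    _ = 0 := by
        rw [mul_assoc, mul_assoc (∑ i ∈ Finset.range n, A ^ i), h, mul_zero, mul_zero]

variable {Y : Type*} [Group Y] [Finite Y] {p : ℕ} [Fact p.Prime]

omit [Fact p.Prime] in
/-- Powers of `u` act quadratically on a natural module. -/
theorem natural_quadratic {X : Type*} [Group X] [Finite X] [hp : Fact p.Prime] {F : Type*} [Field F]
    [CharP F p] {W : Subgroup X} (hnat : Cfsg.IsNaturalSL2Module F W (⊤ : Subgroup X)) {u : X}
    (hu : ∃ k, orderOf u = p ^ k) {x : X} (hx : x ∈ W) (a b : ℤ) : ⁅⁅x, u ^ a⁆, u ^ b⁆ = 1 := by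
  obtain ⟨-, ρ, ψ, -, -, hact⟩ := hnat
  set U : Matrix (Fin 2) (Fin 2) F :=
    ((ρ ⟨u, trivial⟩ : Matrix.SpecialLinearGroup (Fin 2) F) : Matrix (Fin 2) (Fin 2) F) with hU
  obtain ⟨k, hk⟩ := hu
  have hpow : ∀ n : ℕ, ((ρ ⟨u ^ n, trivial⟩ : Matrix.SpecialLinearGroup (Fin 2) F) :
      Matrix (Fin 2) (Fin 2) F) = U ^ n := by
    intro n
    induction n with
    | zero =>
      rw [show (⟨u ^ 0, trivial⟩ : (⊤ : Subgroup X)) = 1 from Subtype.ext (pow_zero u), map_one,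
        pow_zero]
      rfl
    | succ n ih =>
      rw [show (⟨u ^ (n + 1), trivial⟩ : (⊤ : Subgroup X)) = ⟨u ^ n, trivial⟩ * ⟨u, trivial⟩ from
        Subtype.ext (pow_succ u n), map_mul, pow_succ, ← ih]
      rfl
  have hU2 : (U - 1) * (U - 1) = 0 := by
    refine sq_eq_zero_of_isNilpotent ⟨p ^ k, ?_⟩
    rw [sub_pow_char_pow_of_commute (p := p) (n := k) (Commute.one_right U), one_pow, ← hpow, ← hk,
      show (⟨u ^ orderOf u, trivial⟩ : (⊤ : Subgroup X)) = 1 from Subtype.ext (pow_orderOf_eq_one u),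
      map_one]
    exact sub_self 1
  obtain ⟨m, hm⟩ : ∃ m : ℕ, u ^ a = u ^ m := by
    obtain ⟨m, hm⟩ := (Submonoid.mem_powers_iff _ _).1
      (mem_powers_iff_mem_zpowers.2 ⟨a, rfl⟩ : u ^ a ∈ Submonoid.powers u)
    exact ⟨m, hm.symm⟩
  obtain ⟨n, hn⟩ : ∃ n : ℕ, u ^ b = u ^ n := by
    obtain ⟨n, hn⟩ := (Submonoid.mem_powers_iff _ _).1
      (mem_powers_iff_mem_zpowers.2 ⟨b, rfl⟩ : u ^ b ∈ Submonoid.powers u)
    exact ⟨n, hn.symm⟩
  rw [hm, hn]
  have hstep : ∀ (j : ℕ) (v : W), ∃ v' : W, (v' : X) = ⁅(v : X), u ^ j⁆ ∧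
      ψ (Additive.ofMul v') = -((U ^ j - 1).mulVec (ψ (Additive.ofMul v))) := by
    intro j v
    obtain ⟨w, hw, hψ⟩ := hact ⟨u ^ j, trivial⟩ v
    refine ⟨v * w⁻¹, ?_, ?_⟩
    · rw [Subgroup.coe_mul, Subgroup.coe_inv, hw, commutatorElement_def]
      show (v : X) * (u ^ j * (v : X) * (u ^ j)⁻¹)⁻¹ = _
      group
    · rw [ofMul_mul, ofMul_inv, map_add, map_neg, hψ, hpow, Matrix.sub_mulVec, Matrix.one_mulVec,
        neg_sub, sub_eq_add_neg]
  obtain ⟨v₁, hv₁, hψ₁⟩ := hstep m ⟨x, hx⟩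
  obtain ⟨v₂, hv₂, hψ₂⟩ := hstep n v₁
  rw [hψ₁, Matrix.mulVec_neg, neg_neg, Matrix.mulVec_mulVec, pow_sub_one_mul hU2,
    Matrix.zero_mulVec] at hψ₂
  have hone : v₂ = 1 := by
    have := ψ.injective (hψ₂.trans (map_zero ψ).symm)
    exact Additive.ofMul.injective this
  rw [← show (v₁ : X) = ⁅x, u ^ m⁆ from hv₁, ← hv₂, hone]
  rfl

/-- Quadratic on the chief factors of a normal subgroup gives quadratic on those of the group. -/
theorem quadratic_of_normal {N : Subgroup Y} [N.Normal] {u : Y} (hu : u ∈ N)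
    (h : ∀ (U₁ V₁ : Subgroup N), Cfsg.IsChiefFactor U₁ V₁ →
      U₁ ≤ (Cfsg.pCore p Y).subgroupOf N →
      ∀ (a b : ℤ), ∀ x ∈ U₁, ⁅⁅x, (⟨u, hu⟩ : N) ^ a⁆, (⟨u, hu⟩ : N) ^ b⁆ ∈ V₁)
    {U V : Subgroup Y} (hUV : Cfsg.IsChiefFactor U V) (hUQ : U ≤ Cfsg.pCore p Y)
    (hab : ⁅U, U⁆ ≤ V) : Cfsg.iterCommutator U (Subgroup.zpowers u) 2 ≤ V := by
  obtain ⟨hlt, hUn, hVn, hmin⟩ := hUV
  haveI := hUn; haveI := hVn
  have hconjV : ∀ a ∈ U, ∀ c ∈ U, a * c * a⁻¹ * c⁻¹ ∈ V := fun a ha c hc => by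
    rw [← commutatorElement_def]; exact hab (Subgroup.commutator_mem_commutator ha hc)
  have hmemU : ∀ x ∈ U, ∀ g : Y, ⁅x, g⁆ ∈ U := fun x hx g =>
    Subgroup.commutator_le_left U ⊤ (Subgroup.commutator_mem_commutator hx (Subgroup.mem_top g))
  -- kernels of commutation with a fixed element are subgroups modulo `V`
  have hmul : ∀ (g : Y), ∀ x ∈ U, ∀ y ∈ U, ⁅x * y, g⁆ * (⁅x, g⁆ * ⁅y, g⁆)⁻¹ ∈ V := by
    intro g x hx y hy
    have e1 : ⁅x * y, g⁆ = x * ⁅y, g⁆ * x⁻¹ * ⁅x, g⁆ := by simp only [commutatorElement_def]; group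
    have h1 : x * ⁅y, g⁆ * x⁻¹ * ⁅y, g⁆⁻¹ ∈ V := hconjV x hx _ (hmemU y hy g)
    have h2 : ⁅y, g⁆ * ⁅x, g⁆ * ⁅y, g⁆⁻¹ * ⁅x, g⁆⁻¹ ∈ V := hconjV _ (hmemU y hy g) _ (hmemU x hx g)
    rw [e1, show x * ⁅y, g⁆ * x⁻¹ * ⁅x, g⁆ * (⁅x, g⁆ * ⁅y, g⁆)⁻¹ =
      (x * ⁅y, g⁆ * x⁻¹ * ⁅y, g⁆⁻¹) * (⁅y, g⁆ * ⁅x, g⁆ * ⁅y, g⁆⁻¹ * ⁅x, g⁆⁻¹) by group]
    exact mul_mem h1 h2
  have hVc : ∀ v ∈ V, ∀ g : Y, ⁅v, g⁆ ∈ V := fun v hv g =>
    Subgroup.commutator_le_left V ⊤ (Subgroup.commutator_mem_commutator hv (Subgroup.mem_top g))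
  have hcongr : ∀ (g : Y), ∀ x ∈ U, ∀ y ∈ U, x * y⁻¹ ∈ V → ⁅y, g⁆ ∈ V → ⁅x, g⁆ ∈ V := by
    intro g x hx y hy hxy hyg
    have h1 := hmul g (x * y⁻¹) (mul_mem hx (inv_mem hy)) y hy
    rw [inv_mul_cancel_right] at h1
    have h2 := mul_mem h1 (mul_mem (hVc _ hxy g) hyg)
    rwa [inv_mul_cancel_right] at h2
  let W : Subgroup Y :=
    { carrier := {w | w ∈ U ∧ ∀ b : ℤ, ⁅w, u ^ b⁆ ∈ V}
      one_mem' := ⟨one_mem U, fun b => by rw [commutatorElement_one_left]; exact one_mem V⟩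
      mul_mem' := fun {x y} hx hy => ⟨mul_mem hx.1 hy.1, fun b => by
        have h1 := mul_mem (hmul (u ^ b) x hx.1 y hy.1) (mul_mem (hx.2 b) (hy.2 b))
        rwa [inv_mul_cancel_right] at h1⟩
      inv_mem' := fun {x} hx => ⟨inv_mem hx.1, fun b => by
        have h1 := hmul (u ^ b) x⁻¹ (inv_mem hx.1) x hx.1
        rw [inv_mul_cancel, commutatorElement_one_left, one_mul] at h1
        have h2 := mul_mem (inv_mem h1) (inv_mem (hx.2 b))
        rw [inv_inv, mul_inv_cancel_right] at h2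
        exact h2⟩ }
  have hVW : V ≤ W := fun v hv => ⟨hlt.le hv, fun b => hVc v hv _⟩
  let X : Subgroup Y :=
    { carrier := {x | x ∈ U ∧ ∀ a : ℤ, ⁅x, u ^ a⁆ ∈ W}
      one_mem' := ⟨one_mem U, fun a => by rw [commutatorElement_one_left]; exact one_mem W⟩
      mul_mem' := fun {x y} hx hy => ⟨mul_mem hx.1 hy.1, fun a => by
        have h1 := mul_mem (hVW (hmul (u ^ a) x hx.1 y hy.1)) (mul_mem (hx.2 a) (hy.2 a))
        rwa [inv_mul_cancel_right] at h1⟩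
      inv_mem' := fun {x} hx => ⟨inv_mem hx.1, fun a => by
        have h1 := hmul (u ^ a) x⁻¹ (inv_mem hx.1) x hx.1
        rw [inv_mul_cancel, commutatorElement_one_left, one_mul] at h1
        have h2 := mul_mem (inv_mem (hVW h1)) (inv_mem (hx.2 a))
        rw [inv_inv, mul_inv_cancel_right] at h2
        exact h2⟩ }
  have hVX : V ≤ X := fun v hv => ⟨hlt.le hv, fun a => hVW (hVc v hv _)⟩
  suffices hUX : U ≤ X by
    have h1 : ⁅U, Subgroup.zpowers u⁆ ≤ W := by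
      rw [Subgroup.commutator_le]
      rintro x hx _ ⟨a, rfl⟩
      exact (hUX hx).2 a
    show ⁅⁅U, Subgroup.zpowers u⁆, Subgroup.zpowers u⁆ ≤ V
    rw [Subgroup.commutator_le]
    rintro w hw _ ⟨b, rfl⟩
    exact (h1 hw).2 b
  have hmemN : ∀ x ∈ U, ∀ a : ℤ, ⁅x, u ^ a⁆ ∈ U ⊓ N := fun x hx a =>
    ⟨hmemU x hx _, Subgroup.commutator_le_right ⊤ N
      (Subgroup.commutator_mem_commutator (Subgroup.mem_top x) (N.zpow_mem hu a))⟩
  rcases hmin ((U ⊓ N) ⊔ V) inferInstance le_sup_right (sup_le inf_le_left hlt.le) with hB | hB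
  · exact fun x hx => ⟨hx, fun a => hVW (hB.le (Subgroup.mem_sup_left (hmemN x hx a)))⟩
  -- the layer of `N`
  have hlt' : (V ⊓ N).subgroupOf N < (U ⊓ N).subgroupOf N := by
    refine lt_of_le_not_ge (fun x hx => ⟨hlt.le hx.1, hx.2⟩) fun hle => hlt.ne ?_
    rw [← hB]
    exact le_antisymm le_sup_right (sup_le (fun x hx => (hle (show (⟨x, hx.2⟩ : N) ∈
      (U ⊓ N).subgroupOf N from hx)).1) le_rfl)
  obtain ⟨U₁, hU₁, hU₁le⟩ := exists_chief_above hlt'
  have hkey : ∀ (y : Y), ∀ x ∈ U₁, ((MulAut.conjNormal y x : N) : Y) ∈ X := by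
    intro y x hx
    set e : N ≃* N := MulAut.conjNormal y with he
    have hch := chief_equiv e.symm hU₁
    have hVe : ((V ⊓ N).subgroupOf N).comap e.symm.toMonoidHom = (V ⊓ N).subgroupOf N := by
      ext z
      simp only [Subgroup.mem_comap, Subgroup.mem_subgroupOf, MulEquiv.coe_toMonoidHom,
        Subgroup.mem_inf, he, ← map_inv, MulAut.conjNormal_inv_apply]
      constructor
      · rintro ⟨h1, -⟩
        have h2 := hVn.conj_mem _ h1 y
        exact ⟨by simpa [mul_assoc] using h2, z.2⟩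
      · rintro ⟨h1, -⟩
        refine ⟨?_, SetLike.coe_mem _⟩
        have h2 := hVn.conj_mem _ h1 y⁻¹
        simpa [mul_assoc, MulAut.conjNormal_symm_apply] using h2
    rw [hVe] at hch
    have hxe : e x ∈ U₁.comap e.symm.toMonoidHom := by simpa using hx
    have hle : U₁.comap e.symm.toMonoidHom ≤ (Cfsg.pCore p Y).subgroupOf N := fun z hz => by
      have h1 : ((e.symm z : N) : Y) ∈ Cfsg.pCore p Y := hUQ (hU₁le hz).1
      rw [he, MulAut.conjNormal_symm_apply] at h1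
      have h2 := (inferInstance : (Cfsg.pCore p Y).Normal).conj_mem _ h1 y
      simpa [mul_assoc, Subgroup.mem_subgroupOf] using h2
    have hxU : ((e x : N) : Y) ∈ U := by
      rw [he, MulAut.conjNormal_apply]; exact hUn.conj_mem _ (hU₁le hx).1 y
    refine ⟨hxU, fun a => ⟨hmemU _ hxU _, fun b => ?_⟩⟩
    have h3 := h _ _ hch hle a b (e x) hxe
    exact ((show ((⁅⁅e x, (⟨u, hu⟩ : N) ^ a⁆, (⟨u, hu⟩ : N) ^ b⁆ : N) : Y) ∈ V from h3.1))
  let Z : Subgroup Y := Subgroup.normalClosure ((U₁.map N.subtype : Subgroup Y) : Set Y) ⊔ V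
  have hZX : Z ≤ X := by
    refine sup_le ?_ hVX
    rw [Subgroup.normalClosure, Subgroup.closure_le]
    intro z hz
    obtain ⟨_, ⟨x, hx, rfl⟩, hconj⟩ := Group.mem_conjugatesOfSet_iff.1 hz
    obtain ⟨y, rfl⟩ := isConj_iff.1 hconj
    have := hkey y x hx
    rwa [MulAut.conjNormal_apply] at this
  rcases hmin Z inferInstance le_sup_right (hZX.trans fun x hx => hx.1) with hZ | hZ
  · exfalso
    refine hU₁.1.not_ge fun x hx => ⟨hZ.le (Subgroup.mem_sup_left ?_), x.2⟩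
    exact Subgroup.subset_normalClosure ⟨x, hx, rfl⟩
  · exact hZ.ge.trans hZX

end Cfsg.Agent.CF.FocalOdd
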