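import Cfsg.Agent.CF.FocalOdd.Module
import Cfsg.Agent.CF.FocalOdd.Quadratic
import Cfsg.Agent.S2764
import Cfsg.Agent.S2768

/-!
The focal subgroup theorem for odd primes: `S ⊓ G'` is generated by the `S ⊓ N(K)'`, `K ≠ 1`
characteristic in `S`.
-/

set_option autoImplicit false
set_option linter.style.haveILetI false

open scoped commutatorElement

namespace Cfsg.Agent.CF.FocalOdd

open Cfsg.Agent.Fusion Cfsg.Agent.Modules

universe u

variable {Y : Type u} [Group Y] [Finite Y] {p : ℕ} [Fact p.Prime]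

omit [Finite Y] [Fact p.Prime] in
/-- A normal subgroup of a constrained group is constrained. -/
theorem constrained_normal [Finite Y] [Fact p.Prime] (h : Constrained p Y) (N : Subgroup Y)
    [N.Normal] : Constrained p N := by
  intro x hx
  set Q := Cfsg.pCore p Y with hQ
  have hNQ : (Cfsg.pCore p N).map N.subtype = N ⊓ Q := Cores.map_subtype_pCore_eq
  set X := N ⊓ Subgroup.centralizer ((N ⊓ Q : Subgroup Y) : Set Y) with hX
  haveI : (N ⊓ Q).Normal := inferInstance
  haveI : X.Normal := by rw [hX]; infer_instance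
  have hxX : (x : Y) ∈ X := ⟨x.2, Subgroup.mem_centralizer_iff.2 fun z hz => by
    rw [← hNQ] at hz
    obtain ⟨z', hz', rfl⟩ := hz
    exact congrArg Subtype.val (Subgroup.mem_centralizer_iff.1 hx z' hz')⟩
  obtain ⟨j, hj⟩ := IsPGroup.iff_card.1 (Cores.pCore_isPGroup (p := p) (G := Y))
  have hXp : IsPGroup p X := fun z => by
    have hz : ∀ q ∈ Q, ∀ n : ℕ, (z : Y) ^ n * q * ((z : Y) ^ n)⁻¹ = ⁅(z : Y), q⁆ ^ n * q := by
      intro q hq n
      set d := ⁅(z : Y), q⁆ with hd
      have hdmem : d ∈ N ⊓ Q := ⟨Subgroup.commutator_le_left N ⊤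
        (Subgroup.commutator_mem_commutator z.2.1 (Subgroup.mem_top q)),
        Subgroup.commutator_le_right ⊤ Q
          (Subgroup.commutator_mem_commutator (Subgroup.mem_top _) hq)⟩
      have hzd : Commute (z : Y) d := (Subgroup.mem_centralizer_iff.1 z.2.2 d hdmem).symm
      induction n with
      | zero => simp
      | succ n ih =>
        calc (z : Y) ^ (n + 1) * q * ((z : Y) ^ (n + 1))⁻¹
            = (z : Y) * ((z : Y) ^ n * q * ((z : Y) ^ n)⁻¹) * (z : Y)⁻¹ := by
              rw [pow_succ']; group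
          _ = ((z : Y) * d ^ n) * q * (z : Y)⁻¹ := by rw [ih]; group
          _ = d ^ n * ((z : Y) * q * (z : Y)⁻¹) := by rw [(hzd.pow_right n).eq]; group
          _ = d ^ (n + 1) * q := by rw [hd, pow_succ, commutatorElement_def]; group
    have hmem : (z : Y) ^ (p ^ j) ∈ Q := h (Subgroup.mem_centralizer_iff.2 fun q hq => by
      have h1 := hz q hq (p ^ j)
      have h2 : ⁅(z : Y), q⁆ ^ (p ^ j) = 1 := by
        have hm : ⁅(z : Y), q⁆ ∈ Q := Subgroup.commutator_le_right ⊤ Q
          (Subgroup.commutator_mem_commutator (Subgroup.mem_top _) hq)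
        have := pow_card_eq_one' (x := (⟨_, hm⟩ : Q))
        rw [hj] at this
        simpa using congrArg Subtype.val this
      rw [h2, one_mul, mul_inv_eq_iff_eq_mul] at h1
      exact h1.symm)
    obtain ⟨k, hk⟩ := (Cores.pCore_isPGroup (p := p) (G := Y)) ⟨_, hmem⟩
    refine ⟨j + k, Subtype.ext ?_⟩
    rw [SubmonoidClass.coe_pow, pow_add, pow_mul]
    simpa using congrArg Subtype.val hk
  have : (x : Y) ∈ N ⊓ Q := ⟨x.2, Cores.le_pCore inferInstance hXp hxX⟩
  rw [← hNQ] at this
  obtain ⟨x', hx', he⟩ := this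
  exact Subtype.ext he ▸ hx'

omit [Finite Y] in
/-- Conjugation by a normalising element permutes the characteristic subgroups trivially. -/
theorem normalizer_le_of_characteristic {H : Subgroup Y} {K : Subgroup H} [K.Characteristic] :
    Nz H ≤ Nz (K.map H.subtype) := by
  intro g hg
  refine mem_Nz.2 ?_
  have hH : H.map (MulAut.conj g).toMonoidHom = H := mem_Nz.1 hg
  let α : H ≃* H := ((MulAut.conj g).subgroupMap H).trans (MulEquiv.subgroupCongr hH)
  have hc : H.subtype.comp α.toMonoidHom = (MulAut.conj g).toMonoidHom.comp H.subtype := by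
    ext x; rfl
  show (K.map H.subtype).map (MulAut.conj g).toMonoidHom = _
  rw [Subgroup.map_map, ← hc, ← Subgroup.map_map]
  congr 1
  exact Subgroup.characteristic_iff_map_eq.1 inferInstance α

namespace Fail

variable {S : Sylow p Y} {M : Subgroup Y} (D : Fail p S M)
include D

set_option maxHeartbeats 800000 in
/-- In a minimal failure some element outside `O_p` is quadratic on all chief factors below `O_p`. -/
theorem exists_quadratic (hp : p ≠ 2) : ∃ u ∈ (S : Subgroup Y), u ∉ Cfsg.pCore p Y ∧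
    ∀ U V : Subgroup Y, Cfsg.IsChiefFactor U V → U ≤ Cfsg.pCore p Y →
      Cfsg.iterCommutator U (Subgroup.zpowers u) 2 ≤ V := by
  classical
  obtain ⟨L, K, E⟩ := D.exists_layer hp
  haveI := E.normal
  haveI := E.knormal
  set Q := Cfsg.pCore p Y with hQdef
  set J := jt (S : Subgroup Y) with hJ
  have hQS : Q ≤ (S : Subgroup Y) := Cores.pCore_le_sylow S
  obtain ⟨F, fF, ftF, n, ρ, hn, hF, hρ, hρK⟩ := E.sl2
  haveI : CharP F p := by
    refine (CharP.charP_iff_prime_eq_zero Fact.out).2 ?_
    have h0 : ((Fintype.card F : ℕ) : F) = 0 := FiniteField.cast_card_eq_zero F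
    rw [hF, Nat.cast_pow] at h0
    exact (pow_eq_zero_iff (by omega)).1 h0
  -- the Sylow subgroup of `L`
  set S₁ := (S : Subgroup Y) ⊓ L with hS₁
  have hS₁L : IsSyl p S₁ L := (isSyl_sylow S).inf_normal le_top (by rw [Nz, Subgroup.normalizer_eq_top])
  have hJS₁ : J ≤ S₁ := le_inf inf_le_left E.jtL
  have hQS₁ : Q ≤ S₁ := le_inf hQS E.QL
  let SL : Sylow p L := (hS₁L.isP.comap_subtype (K := L)).toSylow hS₁L.idx
  have hSL : ((SL : Subgroup L)).map L.subtype = S₁ := Subgroup.map_subgroupOf_eq_of_le hS₁L.le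
  have hS₁S : (S : Subgroup Y) ≤ Nz S₁ := fun s hs => mem_Nz.2 (by
    rw [hS₁, cj_inf, cj_eq_self_of_mem hs, cj_eq_of_normal])
  -- unique maximal subgroups over large p-subgroups of the normal subgroups that cover with `S`
  have hLmax : ∀ (N : Subgroup Y), N.Normal → ¬ N ≤ M →
      ∀ (P : Subgroup N), P.map N.subtype ≤ (S : Subgroup Y) → J ≤ P.map N.subtype →
      N ⊓ Q ≤ P.map N.subtype → ∃! X : Subgroup N, IsCoatom X ∧ P ≤ X := by
    intro N hN hNM P hPS hJP hQP
    haveI := hN
    have hall : ∀ X : Subgroup N, X ≠ ⊤ → P ≤ X → X ≤ M.subgroupOf N := by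
      intro X hX hPX x hx
      have hXQ : X.map N.subtype ⊔ Q ≠ ⊤ := by
        intro he
        refine hX (eq_top_iff.2 fun y _ => ?_)
        have hy : (y : Y) ∈ X.map N.subtype ⊔ Q := he ▸ Subgroup.mem_top _
        obtain ⟨_, ⟨a, ha, rfl⟩, q, hq, hyq⟩ := Subgroup.mem_sup_of_normal_right.1 hy
        have hq' : q = (a : Y)⁻¹ * y := by rw [← hyq]; simp
        have hqN : q ∈ N := hq' ▸ mul_mem (inv_mem a.2) y.2
        have hqX : q ∈ X.map N.subtype := Subgroup.map_mono hPX (hQP ⟨hqN, hq⟩)
        obtain ⟨z, hz, hzy⟩ : (y : Y) ∈ X.map N.subtype := hyq ▸ mul_mem ⟨a, ha, rfl⟩ hqX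
        exact Subtype.ext hzy ▸ hz
      exact D.jt_over le_sup_right ((hJP.trans (Subgroup.map_mono hPX)).trans le_sup_left) hXQ
        (Subgroup.mem_sup_left ⟨x, hx, rfl⟩)
    have hne : M.subgroupOf N ≠ ⊤ := fun h => hNM (Subgroup.subgroupOf_eq_top.1 h)
    have hPM : P ≤ M.subgroupOf N := fun x hx => D.SM (hPS ⟨x, hx, rfl⟩)
    refine ⟨M.subgroupOf N, ⟨⟨hne, fun X hX => by_contra fun h =>
      not_le_of_gt hX (hall X h (hPM.trans hX.le))⟩, hPM⟩, fun X hX => ?_⟩
    exact (((hX.1.le_iff).1 (hall X hX.1.1 hX.2)).resolve_left hne).symm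
  -- normal closure of `J̃(S)` in `L`
  haveI : Finite (Matrix.SpecialLinearGroup (Fin 2) F) := inferInstance
  let μ : L →* Matrix.ProjectiveSpecialLinearGroup (Fin 2) F :=
    (QuotientGroup.mk' (Subgroup.center (Matrix.SpecialLinearGroup (Fin 2) F))).comp ρ
  have hμ : Function.Surjective μ := (QuotientGroup.mk'_surjective _).comp hρ
  have hZL : ¬ ((SL : Subgroup L) ⊓ Subgroup.centralizer ((SL : Subgroup L) : Set L)).Normal := by
    intro hn
    haveI := hn
    set Z := ((SL : Subgroup L) ⊓ Subgroup.centralizer ((SL : Subgroup L) : Set L)).map L.subtype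
      with hZdef
    have hZ : Z = S₁ ⊓ Subgroup.centralizer (S₁ : Set Y) := by
      rw [hZdef, map_inf_centralizer L.subtype_injective, hSL]
    have hZn : Z.Normal := by
      refine Subgroup.normalizer_eq_top_iff.1 (top_le_iff.1 (E.sup.ge.trans (sup_le ?_ ?_)))
      · intro g hg
        exact Subgroup.le_normalizer_map L.subtype ⟨⟨g, hg⟩, by
          rw [Subgroup.normalizer_eq_top]; trivial, rfl⟩
      · intro s hs
        have h1 : cj s S₁ = S₁ := mem_Nz.1 (hS₁S hs)
        refine mem_Nz.2 ?_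
        rw [hZ]
        show (S₁ ⊓ _).map (MulAut.conj s).toMonoidHom = _
        rw [map_inf_centralizer (MulAut.conj s).injective,
          show S₁.map (MulAut.conj s).toMonoidHom = S₁ from h1]
    refine E.omZ_moved Z hZn (fun z hz => ?_) ?_
    · have h1 := omZ_le_inf p _ hz
      rw [hZ]
      exact ⟨hQS₁ (D.center_le_pCore h1), Subgroup.centralizer_le inf_le_left h1.2⟩
    · rw [hZ]
      exact hJS₁.trans (Subgroup.le_centralizer_iff.1 inf_le_right)
  obtain ⟨PN, hPN⟩ := S2768.result SL (constrained_normal D.constr L)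
    (hLmax L E.normal E.not_le (SL : Subgroup L) (hSL.trans_le inf_le_left) (hJS₁.trans hSL.ge)
      (le_trans (show L ⊓ Q ≤ S₁ from fun x hx => hQS₁ hx.2) hSL.ge))
    μ.ker F n hn hF ⟨QuotientGroup.quotientKerEquivOfSurjective μ hμ⟩ hZL
  set N' := Subgroup.normalClosure ((jt (SL : Subgroup L) : Subgroup L) : Set L) with hN'
  haveI : N'.Normal := Subgroup.normalClosure_normal
  set N := N'.map L.subtype with hNdef
  have hJL : (jt (SL : Subgroup L)).map L.subtype = J := by
    rw [← jt_map L.subtype_injective, hSL]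
    exact jt_eq_of_le inf_le_left hJS₁
  have hNL : N ≤ L := Subgroup.map_subtype_le _
  have hJsyl : IsSyl p J N := by
    refine ⟨hJL ▸ Subgroup.map_mono Subgroup.subset_normalClosure, S.2.to_inf_left, ?_⟩
    rw [hNdef, ← hJL, Subgroup.relIndex_map_map_of_injective _ _ L.subtype_injective,
      Subgroup.relIndex]
    have h := PN.not_dvd_index
    rw [hPN] at h
    exact h
  haveI hNn : N.Normal := by
    refine Subgroup.normalizer_eq_top_iff.1 (top_le_iff.1 (E.sup.ge.trans (sup_le ?_ ?_)))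
    · intro g hg
      exact Subgroup.le_normalizer_map L.subtype ⟨⟨g, hg⟩, by
        rw [Subgroup.normalizer_eq_top]; trivial, rfl⟩
    · intro s hs
      refine mem_Nz.2 ?_
      let α : L ≃* L := MulAut.conjNormal s
      have hc : L.subtype.comp α.toMonoidHom = (MulAut.conj s).toMonoidHom.comp L.subtype := by
        ext x; simp [α]
      have hJs : J.map (MulAut.conj s).toMonoidHom = J :=
        mem_Nz.1 (Nz_le_Nz_jt _ (Subgroup.le_normalizer hs))
      have hαJ : (jt (SL : Subgroup L)).map α.toMonoidHom = jt (SL : Subgroup L) := by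
        refine Subgroup.map_injective L.subtype_injective ?_
        rw [Subgroup.map_map, hc, ← Subgroup.map_map, hJL, hJs]
      show (N'.map L.subtype).map (MulAut.conj s).toMonoidHom = _
      rw [Subgroup.map_map, ← hc, ← Subgroup.map_map]
      congr 1
      exact (Subgroup.map_normalClosure _ α.toMonoidHom α.surjective).trans
        (congrArg Subgroup.normalClosure ((Subgroup.coe_map _ _).symm.trans
          (congrArg SetLike.coe hαJ)))
  have hSN' : (S : Subgroup Y) ⊓ N = J := hJsyl.inf_eq inf_le_left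
  obtain ⟨hNM, -⟩ := D.frattini (N := N) (by rw [hSN']; exact D.jt_not_le)
  let SN : Sylow p N := (hJsyl.isP.comap_subtype (K := N)).toSylow hJsyl.idx
  have hSN : (SN : Subgroup N).map N.subtype = J := Subgroup.map_subgroupOf_eq_of_le hJsyl.le
  -- the linear group is a quotient of `N`
  let μN : N →* Matrix.ProjectiveSpecialLinearGroup (Fin 2) F := μ.comp (Subgroup.inclusion hNL)
  have hμN : Function.Surjective μN := by
    intro y
    obtain ⟨l, rfl⟩ := hμ y
    obtain ⟨a, ha, k, hk, hl⟩ := Subgroup.mem_sup_of_normal_right.1 (E.cover N hNn hJsyl.le l.2)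
    rw [← hρK] at hk
    obtain ⟨k', hk', rfl⟩ := hk
    refine ⟨⟨a, ha⟩, ?_⟩
    have hl' : l = Subgroup.inclusion hNL ⟨a, ha⟩ * k' := Subtype.ext hl.symm
    show μ _ = μ l
    rw [hl', map_mul μ]
    have : μ k' = 1 := by simp [μ, MonoidHom.mem_ker.1 hk']
    rw [this, mul_one]
  obtain ⟨-, hnat⟩ := S2764.result SN (constrained_normal D.constr N)
    (hLmax N hNn hNM (SN : Subgroup N) (hSN.trans_le inf_le_left) hSN.ge
      (by rw [hSN, ← hSN']; exact le_inf (inf_le_right.trans hQS) inf_le_left))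
    μN.ker F n hn hF ⟨QuotientGroup.quotientKerEquivOfSurjective μN hμN⟩ (by
      intro T hT hTc hTn
      haveI := hTn
      let e : (SN : Subgroup N) ≃* J :=
        ((SN : Subgroup N).equivMapOfInjective N.subtype N.subtype_injective).trans
          (MulEquiv.subgroupCongr hSN)
      have hchar : (T.map e.toMonoidHom).Characteristic := by
        refine Subgroup.characteristic_iff_map_eq.2 fun β => ?_
        have h := Subgroup.characteristic_iff_map_eq.1 hTc ((e.trans β).trans e.symm)
        conv_rhs => rw [← h, Subgroup.map_map]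
        rw [Subgroup.map_map]
        congr 1
        ext x
        simp
      have hmap : (T.map e.toMonoidHom).map J.subtype =
          (T.map (SN : Subgroup N).subtype).map N.subtype := by
        rw [Subgroup.map_map, Subgroup.map_map]
        rfl
      haveI := hchar
      refine D.jt_not (T.map e.toMonoidHom)
        (fun hb => hT ((Subgroup.map_eq_bot_iff_of_injective _ e.injective).1 hb)) hchar ?_
      refine Subgroup.normalizer_eq_top_iff.1 (top_le_iff.1 ?_)
      obtain ⟨-, htop⟩ := D.frattini (N := N) (by rw [hSN']; exact D.jt_not_le)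
      refine htop.ge.trans (sup_le ?_ ?_)
      · intro g hg
        rw [hmap]
        exact Subgroup.le_normalizer_map N.subtype ⟨⟨g, hg⟩, by
          rw [Subgroup.normalizer_eq_top]; trivial, rfl⟩
      · exact (Subgroup.le_normalizer.trans (Nz_le_Nz_jt _)).trans normalizer_le_of_characteristic)
  obtain ⟨u, huJ, huQ⟩ := SetLike.not_le_iff_exists.1 D.jt_not_le
  have huN : u ∈ N := hJsyl.le huJ
  refine ⟨u, huJ.1, huQ, fun U V hUV hUQ => ?_⟩
  haveI hVn : V.Normal := hUV.2.2.1
  have hab : ⁅U, U⁆ ≤ V := by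
    have hch := chief_map (QuotientGroup.mk'_surjective V) hUV (QuotientGroup.ker_mk' V).le
    rw [QuotientGroup.map_mk'_self] at hch
    obtain ⟨hcomm, -⟩ := elementary_of_chief_bot (p := p) hch
      ((Cores.pCore_isPGroup.to_le hUQ).map _)
    rw [Subgroup.commutator_le]
    intro a ha b hb
    refine (QuotientGroup.eq_one_iff _).1 ?_
    show QuotientGroup.mk' V ⁅a, b⁆ = 1
    rw [map_commutatorElement, commutatorElement_eq_one_iff_commute]
    exact congrArg Subtype.val (hcomm.1.1 ⟨_, ⟨a, ha, rfl⟩⟩ ⟨_, ⟨b, hb, rfl⟩⟩)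
  refine quadratic_of_normal huN (fun U₁ V₁ hU₁ hU₁Q a b x hx => ?_) hUV hUQ hab
  haveI : V₁.Normal := hU₁.2.2.1
  by_cases hc : ⁅U₁, (⊤ : Subgroup N)⁆ ≤ V₁
  · exact Subgroup.commutator_le_left V₁ ⊤ (Subgroup.commutator_mem_commutator
      (hc (Subgroup.commutator_mem_commutator hx (Subgroup.mem_top _))) (Subgroup.mem_top _))
  have hU₁p : IsPGroup p U₁ := (Cores.pCore_isPGroup.comap_subtype).to_le hU₁Q
  have h1 := natural_quadratic (p := p)
    (hnat U₁ V₁ (Cores.le_pCore hU₁.2.1 hU₁p) hU₁ hc)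
    (u := QuotientGroup.mk' V₁ ⟨u, huN⟩) (by
      obtain ⟨k, hk⟩ := S.2 ⟨u, huJ.1⟩
      have hk' : (⟨u, huN⟩ : N) ^ p ^ k = 1 := Subtype.ext (by simpa using congrArg Subtype.val hk)
      obtain ⟨i, -, hi⟩ := (Nat.dvd_prime_pow Fact.out).1 (orderOf_dvd_of_pow_eq_one
        (show (QuotientGroup.mk' V₁ ⟨u, huN⟩) ^ p ^ k = 1 by rw [← map_pow, hk', map_one]))
      exact ⟨i, hi⟩)
    (x := QuotientGroup.mk' V₁ x) ⟨x, hx, rfl⟩ a b
  rw [← map_zpow, ← map_zpow, ← map_commutatorElement, ← map_commutatorElement] at h1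
  exact (QuotientGroup.eq_one_iff _).1 h1

end Fail

end Cfsg.Agent.CF.FocalOdd
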