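import Cfsg.Agent.CF.FocalOdd.Functors
import Cfsg.Agent.CF.MinimalFailure
import Cfsg.Agent.FFMin.Main

/-!
In a minimal failure of the focal subgroup theorem: every proper subgroup over `Q J̃(S)` lies in `M`,
and `G/C(V)` on `V = ⟨Ω₁Z(S)^G⟩` has the structure given by a single offender.
-/

set_option autoImplicit false

namespace Cfsg.Agent.CF.FocalOdd

open Cfsg.Agent.Fusion Cfsg.Agent.Modules
open LAE79 (fixV mem_fixV)

universe u

variable {Y : Type u} [Group Y] [Finite Y] {p : ℕ} [Fact p.Prime]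

/-- The situation of a minimal failure. -/
structure Fail (p : ℕ) [Fact p.Prime] (S : Sylow p Y) (M : Subgroup Y) : Prop where
  constr : Constrained p Y
  SM : (S : Subgroup Y) ≤ M
  Mne : M ≠ ⊤
  uniq : ∀ H : Subgroup Y, (S : Subgroup Y) ≤ H → H ≠ ⊤ → H ≤ M
  ctrl : ∀ H P : Subgroup Y, H ≠ ⊤ → IsSyl p P H → TrIn (Fam (family.{u} p) Y) H P
  norm : ∀ (H P : Subgroup Y), Cfsg.pCore p Y ≤ P → IsSyl p P H → P ⊓ ⁅H, H⁆ ≤ ⁅M, M⁆ → H ≤ M
  omZ_not : ¬ (omZ p (S : Subgroup Y)).Normal
  jt_not : ∀ K : Subgroup ↥(jt (S : Subgroup Y)), K ≠ ⊥ → K.Characteristic →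
    ¬ (K.map (jt (S : Subgroup Y)).subtype).Normal

namespace Fail

variable {S : Sylow p Y} {M : Subgroup Y} (D : Fail p S M)
include D

/-- A normal subgroup meeting `S` outside `O_p` covers everything with `S`. -/
theorem frattini {N : Subgroup Y} [N.Normal] (h : ¬ (S : Subgroup Y) ⊓ N ≤ Cfsg.pCore p Y) :
    ¬ N ≤ M ∧ N ⊔ (S : Subgroup Y) = ⊤ := by
  have h1 : ¬ N ≤ M := by
    intro hN
    have hS : (S : Subgroup Y) ≤ Nz ((S : Subgroup Y) ⊓ N) := fun s hs => mem_Nz.2 (by
      rw [cj_inf, cj_eq_self_of_mem hs, cj_eq_of_normal])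
    have h2 := D.uniq _ hS (Nz_ne_top_of_not_le_pCore (p := p) S.2.to_inf_left h)
    refine D.Mne (eq_top_iff.2 fun x _ => ?_)
    obtain ⟨n, hn, y, -, hy, rfl⟩ := (isSyl_sylow S).frattini (N := N) le_top
      (by rw [Nz, Subgroup.normalizer_eq_top]) (Subgroup.mem_top x)
    exact mul_mem (hN hn) (h2 hy)
  exact ⟨h1, by_contra fun hne => h1 (le_sup_left.trans (D.uniq _ le_sup_right hne))⟩

theorem center_le_pCore : (S : Subgroup Y) ⊓ Subgroup.centralizer ((S : Subgroup Y) : Set Y) ≤
    Cfsg.pCore p Y :=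
  inf_le_right.trans ((Subgroup.centralizer_le (Cores.pCore_le_sylow S)).trans D.constr)

theorem omZ_le_pCore : omZ p (S : Subgroup Y) ≤ Cfsg.pCore p Y :=
  (omZ_le_inf p _).trans D.center_le_pCore

theorem jt_not_le : ¬ jt (S : Subgroup Y) ≤ Cfsg.pCore p Y := by
  intro h
  set Q := Cfsg.pCore p Y
  have hQS : Q ≤ (S : Subgroup Y) := Cores.pCore_le_sylow S
  have hn : (jt (S : Subgroup Y)).Normal := by
    refine Subgroup.normalizer_eq_top_iff.1 (top_le_iff.1 fun g _ => ?_)
    have h1 := Nz_le_Nz_jt Q (by rw [Nz, Subgroup.normalizer_eq_top]; trivial : g ∈ Nz Q)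
    rwa [jt_eq_of_le hQS h] at h1
  refine D.jt_not ⊤ (fun he => ?_) inferInstance (by rwa [← MonoidHom.range_eq_map, Subgroup.range_subtype])
  haveI : Subsingleton (jt (S : Subgroup Y)) := Subgroup.subsingleton_iff.1
    (subsingleton_iff_bot_eq_top.1 he.symm)
  have hb : jt (S : Subgroup Y) = ⊥ := Subgroup.eq_bot_of_subsingleton _
  have hz : omZ p (S : Subgroup Y) = ⊥ :=
    le_bot_iff.1 (((omZ_le_inf p _).trans (inf_centralizer_le_jt _)).trans hb.le)
  exact D.omZ_not (hz ▸ inferInstance)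

theorem omZ_central_false (h : omZ p (S : Subgroup Y) ≤ Subgroup.center Y) : False :=
  D.omZ_not (Subgroup.normalizer_eq_top_iff.1 (top_le_iff.1 fun g _ =>
    Subgroup.centralizer_le_normalizer _ (Subgroup.mem_centralizer_iff.2 fun z hz =>
      (Subgroup.mem_center_iff.1 (h hz) g).symm)))

/-- Every proper subgroup over `Q J̃(S)` lies in `M`. -/
theorem jt_over {H : Subgroup Y} (hQ : Cfsg.pCore p Y ≤ H) (hJ : jt (S : Subgroup Y) ≤ H)
    (hH : H ≠ ⊤) : H ≤ M := by
  classical
  set Q := Cfsg.pCore p Y with hQdef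
  set J := jt (S : Subgroup Y) with hJdef
  by_contra hHM
  obtain ⟨H₁, ⟨hQ₁, hJ₁, hne₁, hM₁⟩, hmax⟩ := Set.exists_max_image
    {H : Subgroup Y | Q ≤ H ∧ J ≤ H ∧ H ≠ ⊤ ∧ ¬ H ≤ M}
    (fun H => Nat.card ((S : Subgroup Y) ⊓ H : Subgroup Y)) (Set.toFinite _) ⟨H, hQ, hJ, hH, hHM⟩
  set P := (S : Subgroup Y) ⊓ H₁ with hP
  have hQS : Q ≤ (S : Subgroup Y) := Cores.pCore_le_sylow S
  have hQP : Q ≤ P := le_inf hQS hQ₁
  have hJP : J ≤ P := le_inf inf_le_left hJ₁
  have hPS : P ≠ (S : Subgroup Y) := fun he => hM₁ (D.uniq _ (he ▸ inf_le_right) hne₁)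
  have hgrow : ∀ X : Subgroup Y, Q ≤ X → J ≤ X → X ≠ ⊤ → (S : Subgroup Y) ⊓ Nz P ≤ X → X ≤ M := by
    intro X hQX hJX hX hle
    by_contra hXM
    have h1 : P < (S : Subgroup Y) ⊓ Nz P :=
      lt_normalizer_inf S.2 (lt_of_le_of_ne inf_le_left hPS)
    have h2 : Nat.card P < Nat.card ((S : Subgroup Y) ⊓ X : Subgroup Y) :=
      lt_of_le_of_ne (Subgroup.card_le_of_le (h1.le.trans (le_inf inf_le_left hle)))
        fun he => h1.not_ge ((le_inf inf_le_left hle).trans
          (Subgroup.eq_of_le_of_card_ge (h1.le.trans (le_inf inf_le_left hle)) he.ge).ge)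
    exact absurd (hmax X ⟨hQX, hJX, hX, hXM⟩) (not_le.2 h2)
  -- `P` is Sylow in `H₁ ⊓ M`
  obtain ⟨R, hR, hPR⟩ := exists_isSyl_ge (H := H₁ ⊓ M) (p := p) (U := P) S.2.to_inf_left
    (le_inf inf_le_right (inf_le_left.trans D.SM))
  obtain ⟨m, hm, hmR⟩ := (IsSyl.sylow_inf D.SM).exists_conj_le hR.isP (hR.le.trans inf_le_right)
  have hmJ : cj m J = J := by
    have h1 : jt (cj m (S : Subgroup Y)) = cj m J := jt_map (MulAut.conj m).injective _
    have h2 : Cfsg.thompsonSubgroupAOf (S : Subgroup Y) ≤ R := (thompson_le_jt _).trans (hJP.trans hPR)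
    set Ja := Cfsg.thompsonSubgroupAOf (S : Subgroup Y)
    have h3 : cj m Ja = Ja := by
      refine Subgroup.eq_of_le_of_card_ge ?_ (card_cj m Ja).ge
      refine cj_le_iff.2 ?_
      rw [show Ja = sSup (maxAbIn (S : Subgroup Y)) from thompsonSubgroupAOf_eq_sSup _]
      refine sSup_le fun E hE => cj_le_iff.1 ?_
      refine le_sSup ⟨(cj_mono m ((le_thompsonSubgroupAOf hE).trans h2)).trans hmR, comm_map _ hE.2.1,
        fun B hB hBc => ?_⟩
      show _ ≤ Nat.card (cj m E : Subgroup Y)
      rw [card_cj]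
      exact hE.2.2 B hB hBc
    have h4 : cj m (Cfsg.centerThompsonAOf (S : Subgroup Y)) =
        Cfsg.centerThompsonAOf (S : Subgroup Y) := by
      show (Cfsg.thompsonSubgroupAOf (S : Subgroup Y) ⊓ _).map _ = _
      rw [map_inf_centralizer (MulAut.conj m).injective]
      rw [show Subgroup.map (MulAut.conj m).toMonoidHom (Cfsg.thompsonSubgroupAOf (S : Subgroup Y)) = Ja
        from h3]
      rfl
    refine Subgroup.eq_of_le_of_card_ge ?_ (card_cj m J).ge
    refine le_inf ((cj_mono m (hJP.trans hPR)).trans hmR) ?_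
    refine (cj_mono m inf_le_right).trans ?_
    conv_rhs => rw [← h4]
    rintro _ ⟨x, hx, rfl⟩
    rw [Subgroup.mem_centralizer_iff]
    rintro _ ⟨z, hz, rfl⟩
    rw [← map_mul, ← map_mul, Subgroup.mem_centralizer_iff.1 hx z hz]
  have hmH : cj m H₁ ∈ {H : Subgroup Y | Q ≤ H ∧ J ≤ H ∧ H ≠ ⊤ ∧ ¬ H ≤ M} := by
    refine ⟨?_, ?_, fun he => hne₁ ?_, fun he => hM₁ ?_⟩
    · rw [← cj_eq_of_normal m Q]; exact cj_mono m hQ₁
    · rw [← hmJ]; exact cj_mono m hJ₁
    · rw [← cj_inv_cj m H₁, he, cj_top]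
    · rw [← cj_inv_cj m H₁]; exact (cj_mono _ he).trans (cj_eq_self_of_mem (inv_mem hm)).le
  have hRP : R = P := by
    refine (Subgroup.eq_of_le_of_card_ge hPR ?_).symm
    refine le_trans ?_ (hmax _ hmH)
    rw [← card_cj m R]
    exact Subgroup.card_le_of_le (le_inf hmR (cj_mono m (hR.le.trans inf_le_left)))
  -- `P` is Sylow in `H₁`
  obtain ⟨P₁, hP₁, hPP₁⟩ := exists_isSyl_ge (H := H₁) (p := p) (U := P) S.2.to_inf_left inf_le_right
  have hPH : IsSyl p P H₁ := by
    rcases hPP₁.eq_or_lt with he | hlt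
    · exact he ▸ hP₁
    exfalso
    have h1 := lt_normalizer_inf hP₁.isP hlt
    have hnotM : ¬ P₁ ⊓ Nz P ≤ M := fun hle => h1.not_ge (by
      have := hR.eq_of_le (hP₁.isP.to_le (inf_le_left : P₁ ⊓ Nz P ≤ P₁)) (hRP ▸ h1.le)
        (le_inf (inf_le_left.trans hP₁.le) hle)
      rw [this, hRP])
    refine hnotM (inf_le_right.trans (hgrow _ (hQP.trans Subgroup.le_normalizer)
      (hJP.trans Subgroup.le_normalizer) (Nz_ne_top_of_not_le_pCore (p := p) S.2.to_inf_left
        fun hle => D.jt_not_le (hJP.trans hle)) inf_le_right))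
  -- all the normalisers lie in `M`
  refine hM₁ (D.norm H₁ P hQP hPH ((D.ctrl H₁ P hne₁ hPH).trans (iSup₂_le ?_)))
  rintro _ ⟨W, hW, rfl⟩
  refine inf_le_right.trans (Subgroup.commutator_mono ?_ ?_)
  all_goals
    refine inf_le_right.trans ?_
    dsimp only
    rcases hW with rfl | ⟨W', hW', rfl⟩
    · rw [induced_omZFun]
      have hZc : Cfsg.IsConjugacyFunctor p (fun X : Subgroup Y => omZ p X) := by
        have := isConjugacyFunctor_induced (X := Y) (omZFun_charP (p := p))
        rwa [show Cfsg.inducedFunctor (omZFun p) = fun X : Subgroup Y => omZ p X from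
          funext induced_omZFun] at this
      have hPn : P ≤ Nz (omZ p P) :=
        Subgroup.le_normalizer.trans (normalizer_le_Nz_W hZc S.2.to_inf_left)
      refine hgrow _ (hQP.trans hPn) (hJP.trans hPn) ?_ ?_
      · intro htop
        haveI hn : (omZ p P).Normal := Subgroup.normalizer_eq_top_iff.1 htop
        haveI : (Subgroup.centralizer (omZ p P : Set Y)).Normal := by infer_instance
        have hPC : P ≤ Subgroup.centralizer (omZ p P : Set Y) :=
          Subgroup.le_centralizer_iff.1 ((omZ_le_inf p P).trans inf_le_right)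
        obtain ⟨-, hsup⟩ := D.frattini (N := Subgroup.centralizer (omZ p P : Set Y))
          fun hle => D.jt_not_le ((le_inf inf_le_left (hJP.trans hPC)).trans hle)
        have hzP : omZ p (S : Subgroup Y) ≤ omZ p P := by
          refine (Subgroup.closure_le _).2 fun x hx => Subgroup.subset_closure ⟨⟨?_, ?_⟩, hx.2⟩
          · exact hQP (D.center_le_pCore hx.1)
          · exact Subgroup.centralizer_le (inf_le_left : P ≤ (S : Subgroup Y)) hx.1.2
        refine D.omZ_central_false fun z hz => Subgroup.mem_center_iff.2 fun g => ?_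
        have h2 : (⊤ : Subgroup Y) ≤ Subgroup.centralizer ({z} : Set Y) := hsup ▸ sup_le
          (fun c hc => Subgroup.mem_centralizer_singleton_iff.2
            ((Subgroup.mem_centralizer_iff.1 hc z (hzP hz)).symm))
          (fun s hs => Subgroup.mem_centralizer_singleton_iff.2
            (Subgroup.mem_centralizer_iff.1 (omZ_le_inf p _ hz).2 s hs))
        exact Subgroup.mem_centralizer_singleton_iff.1 (h2 (Subgroup.mem_top g))
      · exact inf_le_right.trans (normalizer_le_Nz_W hZc S.2.to_inf_left)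
    · rw [induced_compJt hW' (p := p) S.2.to_inf_left, jt_eq_of_le inf_le_left hJP]
      have hconj := isConjugacyFunctor_induced (X := Y) hW'
      have hJp : IsPGroup p (jt (S : Subgroup Y)) := S.2.to_inf_left
      refine D.uniq _ ((Subgroup.le_normalizer.trans (Nz_le_Nz_jt _)).trans
        (normalizer_le_Nz_W hconj hJp)) fun htop => ?_
      have hnn : (Cfsg.inducedFunctor W' (jt (S : Subgroup Y))).Normal :=
        Subgroup.normalizer_eq_top_iff.1 htop
      refine D.jt_not _ (hW'.1 ↥(jt (S : Subgroup Y)) hJp ?_) (characteristic_of_charP hW' hJp) hnn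
      exact (Subgroup.nontrivial_iff_ne_bot _).2 fun hb => D.jt_not_le (hb.le.trans bot_le)

end Fail

variable (p) in
/-- What the offender structure says inside the group. -/
structure Layer (S : Sylow p Y) (M L K : Subgroup Y) : Prop where
  normal : L.Normal
  sup : L ⊔ (S : Subgroup Y) = ⊤
  knormal : K.Normal
  K_le : K ≤ L
  jtL : jt (S : Subgroup Y) ≤ L
  QL : Cfsg.pCore p Y ≤ L
  cover : ∀ N : Subgroup Y, N.Normal → jt (S : Subgroup Y) ≤ N → L ≤ N ⊔ K
  not_le : ¬ L ≤ M
  omZ_moved : ∀ Z : Subgroup Y, Z.Normal → omZ p (S : Subgroup Y) ≤ Z →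
    ¬ jt (S : Subgroup Y) ≤ Subgroup.centralizer (Z : Set Y)
  sl2 : ∃ (F : Type) (_ : Field F) (_ : Fintype F) (n : ℕ) (ρ : L →* Matrix.SpecialLinearGroup (Fin 2) F),
    1 ≤ n ∧ Fintype.card F = p ^ n ∧ Function.Surjective ρ ∧ ρ.ker.map L.subtype = K

namespace Fail

variable {S : Sylow p Y} {M : Subgroup Y} (D : Fail p S M)
include D

set_option maxHeartbeats 800000 in
theorem exists_layer (hp : p ≠ 2) : ∃ L K : Subgroup Y, Layer p S M L K := by
  classical
  set Q := Cfsg.pCore p Y with hQdef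
  set Z₁ := omZ p (S : Subgroup Y) with hZ₁
  set V := Subgroup.normalClosure (Z₁ : Set Y) with hV
  haveI hVn : V.Normal := Subgroup.normalClosure_normal
  have hQS : Q ≤ (S : Subgroup Y) := Cores.pCore_le_sylow S
  set ZQ := omZ p Q with hZQ
  haveI : ZQ.Normal := Subgroup.normalizer_eq_top_iff.1 (top_le_iff.1 fun g _ => by
    refine mem_Nz.2 ?_
    show (omZ p Q).map (MulAut.conj g).toMonoidHom = _
    rw [← omZ_map _ fun x _ hx => (MulAut.conj g).injective (hx.trans (map_one _).symm)]
    rw [show Q.map (MulAut.conj g).toMonoidHom = Q from cj_eq_of_normal g Q])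
  have hZ₁Q : Z₁ ≤ ZQ := (Subgroup.closure_le _).2 fun x hx =>
    Subgroup.subset_closure ⟨⟨D.center_le_pCore hx.1, Subgroup.centralizer_le hQS hx.1.2⟩, hx.2⟩
  have hVQ : V ≤ ZQ := Subgroup.normalClosure_le_normal hZ₁Q
  have hVexp : ∀ v ∈ V, v ^ p = 1 := fun v hv => pow_eq_one_of_mem_omZ v (hVQ hv)
  have hVcQ : V ≤ Subgroup.centralizer (Q : Set Y) := hVQ.trans ((omZ_le_inf p Q).trans inf_le_right)
  have hVQ' : V ≤ Q := hVQ.trans (omZ_le p Q)
  haveI hVc : IsMulCommutative V := ⟨⟨fun a b => Subtype.ext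
    (Subgroup.mem_centralizer_iff.1 (hVcQ b.2) a (hVQ' a.2))⟩⟩
  letI : CommGroup V := { (inferInstance : Group V) with mul_comm := hVc.1.1 }
  -- the module
  set φ : Y →* MulAut V := MulAut.conjNormal with hφ
  let π : Y →* φ.range := φ.rangeRestrict
  have hπs : Function.Surjective π := MonoidHom.rangeRestrict_surjective φ
  letI : DistribMulAction φ.range (Additive V) :=
    { smul := fun g v => Additive.ofMul ((g : MulAut V) v.toMul)
      one_smul := fun v => rfl
      mul_smul := fun g h v => rfl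
      smul_zero := fun g => map_one (g : MulAut V)
      smul_add := fun g a b => map_mul (g : MulAut V) a.toMul b.toMul }
  have hsm : ∀ (y : Y) (v : Additive V), ((π y • v : Additive V).toMul : Y) = y * (v.toMul : Y) * y⁻¹ :=
    fun y v => MulAut.conjNormal_apply y v.toMul
  have hfix : ∀ (y : Y) (v : Additive V), π y • v = v ↔ y * (v.toMul : Y) = (v.toMul : Y) * y := by
    intro y v
    rw [← mul_inv_eq_iff_eq_mul, ← hsm]
    exact ⟨fun h => by rw [h], fun h => Additive.toMul.injective (Subtype.ext h)⟩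
  have hker : ∀ y : Y, π y = 1 ↔ y ∈ Subgroup.centralizer (V : Set Y) := by
    intro y
    rw [Subgroup.mem_centralizer_iff]
    constructor
    · intro h v hv
      exact ((hfix y (Additive.ofMul ⟨v, hv⟩)).1 (by rw [h, one_smul])).symm
    · intro h
      refine Subtype.ext (MulEquiv.ext fun v => Subtype.ext ?_)
      show ((φ y v : V) : Y) = v
      rw [hφ, MulAut.conjNormal_apply, ← h v v.2, mul_inv_cancel_right]
  set C₁ := Subgroup.centralizer (V : Set Y) with hC₁
  haveI : C₁.Normal := by rw [hC₁]; infer_instance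
  have hQC : Q ≤ C₁ := Subgroup.le_centralizer_iff.1 hVcQ
  have hC₁S : (S : Subgroup Y) ⊓ C₁ ≤ Q ∧ C₁ ≤ M := by
    have hbad : C₁ ⊔ (S : Subgroup Y) = ⊤ → False := fun htop =>
      D.omZ_central_false fun z hz => Subgroup.mem_center_iff.2 fun g => by
        have h2 : (⊤ : Subgroup Y) ≤ Subgroup.centralizer ({z} : Set Y) := htop ▸ sup_le
          (fun c hc => Subgroup.mem_centralizer_singleton_iff.2
            ((Subgroup.mem_centralizer_iff.1 hc z (Subgroup.subset_normalClosure hz)).symm))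
          (fun s hs => Subgroup.mem_centralizer_singleton_iff.2
            (Subgroup.mem_centralizer_iff.1 (omZ_le_inf p _ hz).2 s hs))
        exact Subgroup.mem_centralizer_singleton_iff.1 (h2 (Subgroup.mem_top g))
    exact ⟨by_contra fun h => hbad (D.frattini h).2,
      le_sup_left.trans (D.uniq _ le_sup_right hbad)⟩
  have hJC : ¬ jt (S : Subgroup Y) ≤ C₁ := fun h =>
    D.jt_not_le ((le_inf inf_le_left h).trans hC₁S.1)
  let T : Sylow p φ.range := S.mapSurjective hπs
  have hT : (T : Subgroup φ.range) = (S : Subgroup Y).map π := Sylow.coe_mapSurjective hπs S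
  set M' : Subgroup φ.range := M.map π with hM'
  have hkerM : π.ker ≤ M := fun y hy => hC₁S.2 ((hker y).1 hy)
  have hexp : ∀ v : Additive V, p • v = 0 := fun v =>
    Additive.toMul.injective (Subtype.ext (by simpa using hVexp _ v.toMul.2))
  have hT₁ : ∀ z (hz : z ∈ Z₁), Additive.ofMul (⟨z, Subgroup.subset_normalClosure hz⟩ : V) ∈
      fixV (V := Additive V) (T : Subgroup φ.range) := by
    intro z hz g hg
    rw [hT] at hg
    obtain ⟨s, hs, rfl⟩ := hg
    exact (hfix s _).2 (Subgroup.mem_centralizer_iff.1 (omZ_le_inf p _ hz).2 s hs)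
  have H₀ : FFMin.Hyp (Additive V) p T M' :=
    { faith := fun g hg => Subtype.ext (MulEquiv.ext fun v =>
        Additive.ofMul.injective (hg (Additive.ofMul v)))
      exp := hexp
      ne := fun he => hJC fun x hx => (hker x).1 (by
        have : π x ∈ (T : Subgroup φ.range) := hT.symm ▸ ⟨x, hx.1, rfl⟩
        rwa [he, Subgroup.mem_bot] at this)
      TM := hT ▸ Subgroup.map_mono D.SM
      Mne := fun he => D.Mne (by
        rw [← Subgroup.comap_map_eq_self hkerM, ← hM', he, Subgroup.comap_top])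
      uniq := fun L hL hTL => by
        rw [hT, Subgroup.map_le_iff_le_comap] at hTL
        rw [← Subgroup.map_comap_eq_self_of_surjective hπs L]
        exact Subgroup.map_mono (D.uniq _ hTL fun he => hL (by
          rw [← Subgroup.map_comap_eq_self_of_surjective hπs L, he,
            Subgroup.map_top_of_surjective π hπs]))
      core := fun N hN hNp => by
        haveI := hN
        set X := N.comap π with hX
        haveI : X.Normal := hN.comap π
        by_cases h : (S : Subgroup Y) ⊓ X ≤ Q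
        · refine (Subgroup.eq_bot_iff_forall N).2 fun n hn => ?_
          have hnT : n ∈ (T : Subgroup φ.range) :=
            Cores.pCore_le_sylow T (Cores.le_pCore hN hNp hn)
          rw [hT] at hnT
          obtain ⟨s, hs, rfl⟩ := hnT
          exact (hker s).2 (hQC (h ⟨hs, hn⟩))
        · exfalso
          obtain ⟨-, hsup⟩ := D.frattini h
          have htop : N ⊔ (T : Subgroup φ.range) = ⊤ := by
            have e := congrArg (Subgroup.map π) hsup
            rwa [Subgroup.map_sup, hX, Subgroup.map_comap_eq_self_of_surjective hπs,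
              Subgroup.map_top_of_surjective π hπs, ← hT] at e
          have hTM' : N ⊔ (T : Subgroup φ.range) ≤ M' := by
            rw [← T.3 (hNp.to_sup_of_normal_left T.2) le_sup_right |>.symm]
            exact hT ▸ Subgroup.map_mono D.SM
          rw [htop] at hTM'
          exact D.Mne (by
            rw [← Subgroup.comap_map_eq_self hkerM, ← hM', top_le_iff.1 hTM', Subgroup.comap_top])
      moved := by
        by_contra h
        push Not at h
        refine D.omZ_central_false fun z hz => Subgroup.mem_center_iff.2 fun g => ?_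
        exact (hfix g _).1 (h _ (hT₁ z hz) (π g) trivial)
      span := by
        refine eq_top_iff.2 fun v _ => ?_
        set X := AddSubgroup.closure {x | ∃ (g : φ.range) (u : Additive V),
          u ∈ fixV (V := Additive V) (T : Subgroup φ.range) ∧ g • u = x} with hX
        suffices h : ∀ y, ∀ hy : y ∈ V, Additive.ofMul (⟨y, hy⟩ : V) ∈ X from h _ v.toMul.2
        intro y hy
        have hy' : y ∈ Subgroup.closure (Group.conjugatesOfSet (Z₁ : Set Y)) := hy
        induction hy' using Subgroup.closure_induction with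
        | mem x hx =>
          obtain ⟨z, hz, hc⟩ := Group.mem_conjugatesOfSet_iff.1 hx
          obtain ⟨g, rfl⟩ := isConj_iff.1 hc
          exact AddSubgroup.subset_closure
            ⟨π g, _, hT₁ z hz, Additive.toMul.injective (Subtype.ext (hsm g _))⟩
        | one => exact zero_mem X
        | mul a b ha hb iha ihb => exact add_mem (iha ha) (ihb hb)
        | inv a ha iha => exact neg_mem (iha ha) }
  -- the members
  have hmem : ∀ E ∈ maxAbIn (S : Subgroup Y),
      E.map π = ⊥ ∨ FFMin.Off (Additive V) p (E.map π) := by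
    intro E hE
    by_cases h0 : E.map π = ⊥
    · exact Or.inl h0
    haveI := hE.2.1
    have hp' : IsPGroup p (E.map π) := (S.2.to_le hE.1).map π
    have hc' : IsMulCommutative (E.map π) := comm_map π hE.2.1
    refine Or.inr ⟨hp', h0, hc', le_antisymm (H₀.wt_le hp' hc') ?_⟩
    set E₀ := E ⊓ Q with hE₀
    have hcomm : IsMulCommutative (E₀ ⊔ V : Subgroup Y) :=
      FFMin.comm_sup (FFMin.comm_of_le hE.2.1 inf_le_left) hVc fun a ha b hb =>
        Subgroup.mem_centralizer_iff.1 (hVcQ hb) a ha.2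
    have h1 : Nat.card (E₀ ⊔ V : Subgroup Y) ≤ Nat.card E :=
      hE.2.2 _ (sup_le (inf_le_left.trans hE.1) (hVQ'.trans hQS)) hcomm
    have h2 := FFMin.card_sup_mul_inf hcomm
    have h3 : Nat.card E = Nat.card (E.map π) * Nat.card E₀ := by
      have e1 := (π.ker.subgroupOf E).card_mul_index
      have e2 : π.ker.subgroupOf E = E₀.subgroupOf E := by
        ext x
        rw [Subgroup.mem_subgroupOf, Subgroup.mem_subgroupOf, MonoidHom.mem_ker]
        exact ⟨fun h => ⟨x.2, hC₁S.1 ⟨hE.1 x.2, (hker _).1 h⟩⟩, fun h => (hker _).2 (hQC h.2)⟩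
      rw [show (π.ker.subgroupOf E).index = π.ker.relIndex E from rfl, Subgroup.relIndex_ker, e2,
        Nat.card_congr (Subgroup.subgroupOfEquivOfLe (inf_le_left : E₀ ≤ E)).toEquiv] at e1
      rw [← e1, mul_comm]
    have h4 : Nat.card (E₀ ⊓ V : Subgroup Y) ≤
        Nat.card (fixV (V := Additive V) (E.map π)) := by
      refine Nat.card_le_card_of_injective
        (fun x => ⟨Additive.ofMul (⟨(x : Y), x.2.2⟩ : V), ?_⟩) fun x y h => ?_
      · rintro _ ⟨e, he, rfl⟩
        exact (hfix e _).2 (congrArg Subtype.val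
          (hE.2.1.1.1 ⟨e, he⟩ ⟨(x : Y), x.2.1.1⟩))
      · have h' := congrArg (fun z : fixV (V := Additive V) (E.map π) =>
          (((z : Additive V).toMul : V) : Y)) h
        exact Subtype.ext h'
    rw [FFMin.wt, show Nat.card (Additive V) = Nat.card V from rfl]
    refine Nat.le_of_mul_le_mul_left ?_ (Nat.card_pos (α := E₀))
    calc Nat.card E₀ * Nat.card V
        = Nat.card (E₀ ⊔ V : Subgroup Y) * Nat.card (E₀ ⊓ V : Subgroup Y) := h2.symm
      _ ≤ Nat.card (E.map π) * Nat.card E₀ * Nat.card (fixV (V := Additive V) (E.map π)) :=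
          Nat.mul_le_mul (h3 ▸ h1) h4
      _ = _ := by ring
  have hJa : ∃ E ∈ maxAbIn (S : Subgroup Y), FFMin.Off (Additive V) p (E.map π) := by
    by_contra h
    push Not at h
    have hall : Cfsg.thompsonSubgroupAOf (S : Subgroup Y) ≤ C₁ := by
      rw [thompsonSubgroupAOf_eq_sSup]
      refine sSup_le fun E hE x hx => (hker x).1 ?_
      have h' := (hmem E hE).resolve_right (h E hE)
      rw [Subgroup.map_eq_bot_iff] at h'
      exact MonoidHom.mem_ker.1 (h' hx)
    set Ja := Cfsg.thompsonSubgroupAOf (S : Subgroup Y)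
    have hJQ : Ja ≤ Q := fun x hx => hC₁S.1 ⟨thompsonSubgroupAOf_le _ hx, hall hx⟩
    have hJaQ : Cfsg.thompsonSubgroupAOf Q = Ja := thompsonSubgroupAOf_eq_of_le hQS hJQ
    -- `Z(J_A(S))` is then normal
    set Zc := Cfsg.centerThompsonAOf (S : Subgroup Y)
    have hZn : Zc.Normal := by
      refine Subgroup.normalizer_eq_top_iff.1 (top_le_iff.1 fun g _ => ?_)
      have h1 := normalizer_le_normalizer_centerThompsonAOf Q
        (by rw [Subgroup.normalizer_eq_top]; trivial : g ∈ Subgroup.normalizer (Q : Set Y))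
      rwa [Cfsg.centerThompsonAOf, hJaQ] at h1
    have hZJ : Zc ≤ jt (S : Subgroup Y) := inf_le_left.trans (thompson_le_jt _)
    have hchar : (Zc.subgroupOf (jt (S : Subgroup Y))).Characteristic := by
      set J := jt (S : Subgroup Y)
      rw [Subgroup.characteristic_iff_map_eq]
      intro α
      have hJJ : Cfsg.centerThompsonAOf J = Zc := by
        rw [Cfsg.centerThompsonAOf,
          thompsonSubgroupAOf_eq_of_le (inf_le_left : J ≤ (S : Subgroup Y)) (thompson_le_jt _)]
        rfl
      have h2 : (Cfsg.centerThompsonAOf (⊤ : Subgroup J)).map J.subtype = Zc := by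
        rw [map_centerThompsonAOf J.subtype_injective, ← MonoidHom.range_eq_map,
          Subgroup.range_subtype, hJJ]
      have h3 : Zc.subgroupOf J = Cfsg.centerThompsonAOf (⊤ : Subgroup J) := by
        rw [← h2]; exact Subgroup.comap_map_eq_self_of_injective J.subtype_injective _
      rw [h3]
      refine (map_centerThompsonAOf (f := (α : ↥J →* ↥J)) α.injective ⊤).trans ?_
      rw [Subgroup.map_top_of_surjective _ α.surjective]
    refine D.jt_not _ (fun hb => ?_) hchar (by rwa [Subgroup.map_subgroupOf_eq_of_le hZJ])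
    have hZb : Zc = ⊥ := by
      rw [← Subgroup.map_subgroupOf_eq_of_le hZJ, hb, Subgroup.map_bot]
    have hZ1 : Z₁ ≤ Zc := (omZ_le_inf p _).trans (le_inf
      (fun x hx => by
        obtain ⟨E, hE⟩ := maxAbIn_nonempty (S : Subgroup Y)
        exact le_thompsonSubgroupAOf hE (mem_maxAbIn_of_centralizing hE hx.1
          (Subgroup.centralizer_le hE.1 hx.2)))
      (inf_le_right.trans (Subgroup.centralizer_le (thompsonSubgroupAOf_le _))))
    have hz0 : Z₁ = ⊥ := le_bot_iff.1 (hZ1.trans hZb.le)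
    refine D.omZ_not ?_
    rw [← hZ₁, hz0]
    infer_instance
  -- points fixed by all members
  have hcent : ∀ v : Additive V, (∀ E : Subgroup φ.range, FFMin.Off (Additive V) p E →
      E ≤ (T : Subgroup φ.range) → v ∈ fixV (V := Additive V) E) →
      ∀ x ∈ jt (S : Subgroup Y), π x • v = v := by
    intro v hv x hx
    set y : Y := ((v.toMul : V) : Y) with hy
    have hyS : y ∈ (S : Subgroup Y) := hQS (hVQ' v.toMul.2)
    have hcomm : ∀ E ∈ maxAbIn (S : Subgroup Y), y ∈ Subgroup.centralizer (E : Set Y) := by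
      intro E hE
      rw [Subgroup.mem_centralizer_iff]
      intro e he
      refine (hfix e v).1 ?_
      rcases hmem E hE with h | h
      · have : π e ∈ E.map π := ⟨e, he, rfl⟩
        rw [h, Subgroup.mem_bot] at this
        rw [this, one_smul]
      · exact hv _ h (hT ▸ Subgroup.map_mono hE.1) _ ⟨e, he, rfl⟩
    have hyZ : y ∈ Cfsg.centerThompsonAOf (S : Subgroup Y) := by
      refine ⟨?_, mem_centralizer_thompsonSubgroupAOf_iff.2 hcomm⟩
      obtain ⟨E, hE⟩ := maxAbIn_nonempty (S : Subgroup Y)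
      exact le_thompsonSubgroupAOf hE (mem_maxAbIn_of_centralizing hE hyS (hcomm E hE))
    exact (hfix x v).2 (Subgroup.mem_centralizer_iff.1 hx.2 y hyZ).symm
  obtain ⟨E₁, hE₁, hE₁off⟩ := hJa
  have hE₁T : E₁.map π ≤ (T : Subgroup φ.range) := hT ▸ Subgroup.map_mono hE₁.1
  obtain ⟨A, L', hS', hL'M⟩ := H₀.exists_struct hp ⟨_, hE₁off, hE₁T⟩ (by
    intro v hv hv0 g hg
    obtain ⟨y, rfl⟩ := hπs g
    refine ⟨y, D.jt_over (H := Subgroup.centralizer ({((v.toMul : V) : Y)} : Set Y))
      (fun q hq => Subgroup.mem_centralizer_singleton_iff.2 ((hfix q v).1 (by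
        rw [(hker q).2 (hQC hq), one_smul])))
      (fun x hx => Subgroup.mem_centralizer_singleton_iff.2 ((hfix x v).1 (hcent v hv x hx)))
      (fun htop => hv0 fun g _ => ?_)
      (Subgroup.mem_centralizer_singleton_iff.2 ((hfix y v).1 hg)), rfl⟩
    obtain ⟨z, rfl⟩ := hπs g
    exact (hfix z v).2 (Subgroup.mem_centralizer_singleton_iff.1 (htop ▸ Subgroup.mem_top z)))
  have hE₁A : E₁.map π = A := hS'.unique _ hE₁off hE₁T
  have hJA : (jt (S : Subgroup Y)).map π ≤ A := by
    rintro _ ⟨x, hx, rfl⟩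
    refine hS'.axis _ (hT ▸ ⟨x, hx.1, rfl⟩) fun v hv => hcent v (fun E hE hET => ?_) x hx
    rw [hS'.unique E hE hET]; exact hv
  have hAJ : A ≤ (jt (S : Subgroup Y)).map π :=
    hE₁A ▸ Subgroup.map_mono ((le_thompsonSubgroupAOf hE₁).trans (thompson_le_jt _))
  haveI := hS'.normal
  have hKL : π.ker ≤ L'.comap π := π.ker_le_comap L'
  have hAL : A ≤ L' := by
    rw [← hS'.closure]; exact Subgroup.subset_normalClosure
  obtain ⟨F, fF, ftF, n, hn, hF, ⟨ρ⟩⟩ := hS'.sl2
  refine ⟨L'.comap π, π.ker,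
    { normal := hS'.normal.comap π
      sup := ?_
      knormal := inferInstance
      K_le := hKL
      jtL := fun x hx => hAL (hJA ⟨x, hx, rfl⟩)
      QL := fun q hq => hKL ((hker q).2 (hQC hq))
      cover := fun N hN hJN => ?_
      not_le := fun h => hL'M ?_
      omZ_moved := fun Z hZ hZ1 hc => hJC (hc.trans (Subgroup.centralizer_le ?_))
      sl2 := ⟨F, fF, ftF, n, ρ.toMonoidHom.comp (π.subgroupComap L'), hn, hF, ?_, ?_⟩ }⟩
  · have e : (L'.comap π ⊔ (S : Subgroup Y)).map π = ⊤ := by
      rw [Subgroup.map_sup, Subgroup.map_comap_eq_self_of_surjective hπs, ← hT, hS'.top]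
    rw [← Subgroup.comap_top π, ← e, Subgroup.comap_map_eq_self]
    exact hKL.trans le_sup_left
  · haveI := hN
    have h1 : L' ≤ N.map π := by
      rw [← hS'.closure]
      haveI := hN.map π hπs
      exact Subgroup.normalClosure_le_normal (hAJ.trans (Subgroup.map_mono hJN))
    exact (Subgroup.comap_mono h1).trans (Subgroup.comap_map_eq π N).le
  · rw [← Subgroup.map_comap_eq_self_of_surjective hπs L']; exact Subgroup.map_mono h
  · exact Subgroup.normalClosure_le_normal hZ1
  · exact ρ.surjective.comp (π.subgroupComap_surjective_of_surjective L' hπs)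
  · ext y
    constructor
    · rintro ⟨x, hx, rfl⟩
      have h1 : π.subgroupComap L' x = 1 := ρ.injective (hx.trans (map_one ρ).symm)
      exact congrArg Subtype.val h1
    · intro hy
      refine ⟨⟨y, hKL hy⟩, ?_, rfl⟩
      show ρ (π.subgroupComap L' ⟨y, hKL hy⟩) = 1
      rw [show π.subgroupComap L' ⟨y, hKL hy⟩ = 1 from Subtype.ext hy, map_one]

end Fail

end Cfsg.Agent.CF.FocalOdd
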